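import Cfsg.Agent.Lib.Coprime.Action
import Cfsg.Agent.Lib.PGroups.Basic
import Mathlib.GroupTheory.Frattini
import Mathlib.Tactic

/-!
# Coprime action on the abelianization of a `p`-group

A `p'`-group of automorphisms of a `p`-group `D` acting trivially on `D/D'` acts trivially on `D`.
-/

set_option autoImplicit false
set_option linter.unusedSectionVars false
set_option linter.style.haveILetI false

namespace Cfsg.Agent.Lib.BlockCover.Coprime

variable {G : Type*} [Group G] [Finite G] {p : ℕ} [hp : Fact p.Prime]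

/-- If `D = D' C` for a `p`-group `D` and a subgroup `C ≤ D`, then `C = D`. -/
theorem eq_of_sup_commutator {D C : Subgroup G} (hD : IsPGroup p D) (hCD : C ≤ D)
    (h : D ≤ ⁅D, D⁆ ⊔ C) : C = D := by
  classical
  by_contra hne
  have hC' : C.subgroupOf D ≠ ⊤ := by
    intro htop
    apply hne
    apply le_antisymm hCD
    intro x hx
    have : (⟨x, hx⟩ : D) ∈ C.subgroupOf D := by rw [htop]; trivial
    exact this
  obtain ⟨T, hT, hCT⟩ := (eq_top_or_exists_le_coatom (C.subgroupOf D)).resolve_left hC'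
  have h1 : commutator D ≤ T :=
    (Cfsg.Agent.Lib.PGroups.Basic.commutator_le_frattini hD).trans (frattini_le_coatom hT)
  have h2 : ⁅D, D⁆ ≤ T.map D.subtype := by
    rw [← Subgroup.map_subtype_commutator]
    exact Subgroup.map_mono h1
  have h3 : C ≤ T.map D.subtype := by
    intro c hc
    exact ⟨⟨c, hCD hc⟩, hCT hc, rfl⟩
  have h4 := h.trans (sup_le h2 h3)
  apply hT.1
  rw [eq_top_iff]
  rintro ⟨x, hx⟩ -
  obtain ⟨t, ht, hte⟩ := h4 hx
  have : t = ⟨x, hx⟩ := Subtype.ext hte
  rwa [← this]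

/-- A subgroup of order prime to `p` normalizing the `p`-group `D`, and acting trivially on `D/D'`,
centralizes `D`. -/
theorem le_centralizer_of_commutator_le {A D : Subgroup G} (hD : IsPGroup p D)
    (hAD : A ≤ Subgroup.normalizer (D : Set G)) (hA : ¬ p ∣ Nat.card A)
    (h : ⁅D, A⁆ ≤ ⁅D, D⁆) : A ≤ Subgroup.centralizer (D : Set G) := by
  have hDcard : ∃ k, Nat.card D = p ^ k := IsPGroup.iff_card.mp hD
  obtain ⟨k, hk⟩ := hDcard
  have hcop : (Nat.card A).Coprime (Nat.card D) := by
    rw [hk]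
    exact Nat.Coprime.pow_right _ ((Nat.Prime.coprime_iff_not_dvd hp.out).mpr hA).symm
  have hsolv : Group.IsSolvable D := by
    haveI := hD.isNilpotent
    infer_instance
  have h1 := Cfsg.Agent.Lib.Coprime.Action.commutator_sup_fixed hAD hcop (Or.inr hsolv)
  have h2 : D ⊓ Subgroup.centralizer (A : Set G) = D := by
    apply eq_of_sup_commutator hD inf_le_left
    calc D = ⁅D, A⁆ ⊔ (D ⊓ Subgroup.centralizer (A : Set G)) := h1.symm
      _ ≤ ⁅D, D⁆ ⊔ (D ⊓ Subgroup.centralizer (A : Set G)) := sup_le_sup_right h _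
  intro a ha
  rw [Subgroup.mem_centralizer_iff]
  intro d hd
  have : d ∈ D ⊓ Subgroup.centralizer (A : Set G) := by rw [h2]; exact hd
  exact ((Subgroup.mem_centralizer_iff.mp this.2) a ha).symm ▸ rfl

end Cfsg.Agent.Lib.BlockCover.Coprime
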